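import Cfsg.Agent.Lib.Transfer.Abelian
import Cfsg.Agent.Lib.NormalPComplement.Thompson

set_option autoImplicit false

/-!
An abelian Sylow subgroup on `d` generators is central in its normalizer when the group order has
no prime divisor in common with `∏ (p ^ j - 1)`, `j ≤ d`.
-/

namespace CfsgLib.Hall2

open Subgroup
open scoped IsMulCommutative

variable {G : Type*} [Group G] [Finite G] {p : ℕ} [hp : Fact p.Prime]

theorem card_omega_le (A : Subgroup G) [IsMulCommutative A] :
    Nat.card (powMonoidHom p : A →* A).ker ∣ p ^ Group.rank A := by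
  have h1 : Nat.card (powMonoidHom p : A →* A).ker
      = Nat.card (A ⧸ (powMonoidHom p : A →* A).range) := by
    rw [← Subgroup.index_eq_card, Subgroup.index_range]
  have h2 : ∀ v : A ⧸ (powMonoidHom p : A →* A).range, v ^ p = 1 := fun v => by
    obtain ⟨x, rfl⟩ := QuotientGroup.mk'_surjective _ v
    rw [← map_pow]
    exact (QuotientGroup.eq_one_iff _).2 ⟨x, rfl⟩
  rw [h1]
  exact (card_dvd_exponent_pow_rank' _ h2).trans (pow_dvd_pow p
    (Group.rank_le_of_surjective _ (QuotientGroup.mk'_surjective _)))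

theorem normalizer_le_centralizer_of_rank (P : Sylow p G) (hP : IsMulCommutative (P : Subgroup G))
    (h : ∀ q : ℕ, q.Prime → q ≠ p → q ∣ Nat.card G →
      ∀ j, 1 ≤ j → j ≤ Group.rank (P : Subgroup G) → ¬ q ∣ p ^ j - 1) :
    normalizer (P : Set G) ≤ centralizer (P : Set G) := by
  set N := normalizer (P : Set G) with hN
  set S : Subgroup G := (P : Subgroup G) with hS
  let O : Subgroup G := (powMonoidHom p : S →* S).ker.map S.subtype
  have hO : ∀ x, x ∈ O ↔ x ∈ S ∧ x ^ p = 1 := fun x => by
    constructor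
    · rintro ⟨y, hy, rfl⟩
      exact ⟨y.2, congrArg Subtype.val (MonoidHom.mem_ker.1 hy)⟩
    · rintro ⟨hx, hxp⟩
      exact ⟨⟨x, hx⟩, MonoidHom.mem_ker.2 (Subtype.ext hxp), rfl⟩
  have hOn : N ≤ normalizer (O : Set G) := fun k hk => mem_normalizer_iff.2 fun x => by
    rw [hO, hO]
    have h1 := mem_normalizer_iff.1 hk x
    rw [conj_pow, mul_inv_eq_one, mul_eq_left]
    exact and_congr_left fun _ => h1
  obtain ⟨i, hir, hi⟩ : ∃ i ≤ Group.rank S, Nat.card O = p ^ i := by
    rw [Subgroup.card_map_of_injective S.subtype_injective]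
    exact (Nat.dvd_prime_pow hp.out).1 (card_omega_le S)
  suffices hk : ∀ k ∈ N, (orderOf k).Coprime p → k ∈ centralizer (S : Set G) by
    intro n hn
    have : (centralizer (S : Set G)).subgroupOf N = ⊤ := by
      refine eq_top_of_le_card _ (Nat.le_of_dvd Nat.card_pos ?_)
      refine (Nat.dvd_iff_prime_pow_dvd_dvd _ _).2 fun q m hq hqm => ?_
      have : Fact q.Prime := ⟨hq⟩
      rcases eq_or_ne q p with rfl | hqp
      · -- the Sylow subgroup itself
        have hle : S.subgroupOf N ≤ (centralizer (S : Set G)).subgroupOf N := fun x hx =>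
          (le_centralizer_iff_isMulCommutative.2 hP) hx
        refine dvd_trans ?_ (card_dvd_of_le hle)
        rw [Nat.card_congr (subgroupOfEquivOfLe (show S ≤ N from le_normalizer)).toEquiv]
        exact P.pow_dvd_card_of_pow_dvd_card (hqm.trans (card_subgroup_dvd_card N))
      · obtain ⟨R, hR⟩ := Sylow.exists_subgroup_card_pow_prime q hqm
        rw [← hR]
        refine card_dvd_of_le fun x hx => hk x x.2 ?_
        rw [orderOf_coe]
        have h1 : orderOf x ∣ q ^ m := hR ▸ Subgroup.orderOf_dvd_natCard R hx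
        exact ((Nat.coprime_primes hq hp.out).2 hqp).pow_left m |>.coprime_dvd_left h1
    have h2 : (⟨n, hn⟩ : N) ∈ (centralizer (S : Set G)).subgroupOf N := this ▸ mem_top _
    exact h2
  intro k hk hkp
  refine NormalPComplement.mem_centralizer_of_omegaOne hP P.2 hk hkp ?_
  refine centralizer_le (show Cfsg.omegaOne p S ≤ O from (closure_le _).2 fun x hx =>
    (hO x).2 hx) ?_
  -- a `p'`-element fixes the elementary layer
  have main : ∀ q m : ℕ, q.Prime → ∀ u ∈ N, orderOf u = q ^ m → q ≠ p →
      u ∈ centralizer (O : Set G) := by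
    intro q m hq u hu huo hqp
    rcases Nat.eq_zero_or_pos m with rfl | hm
    · rw [pow_zero, orderOf_eq_one_iff] at huo
      rw [huo]
      exact one_mem _
    have : Fact q.Prime := ⟨hq⟩
    have hle : zpowers u ≤ normalizer (O : Set G) := zpowers_le.2 (hOn hu)
    let _ : MulAction (zpowers u) O :=
      MulAction.compHom _ (O.normalizerMonoidHom.comp (inclusion hle))
    have hQ : IsPGroup q (zpowers u) := IsPGroup.of_card (n := m) (by rw [Nat.card_zpowers, huo])
    have hmod := hQ.card_modEq_card_fixedPoints O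
    have hfix : Nat.card (MulAction.fixedPoints (zpowers u) O)
        = Nat.card ↥(O ⊓ centralizer (zpowers u : Set G)) := by
      refine Nat.card_congr
        { toFun := fun x => ⟨x.1.1, x.1.2, fun v hv =>
            mul_inv_eq_iff_eq_mul.1 (congrArg Subtype.val (x.2 ⟨v, hv⟩))⟩
          invFun := fun x => ⟨⟨x.1, x.2.1⟩, fun v => Subtype.ext
            (mul_inv_eq_iff_eq_mul.2 (x.2.2 v.1 v.2))⟩
          left_inv := fun x => rfl
          right_inv := fun x => rfl }
    obtain ⟨j, hji, hj⟩ := (Nat.dvd_prime_pow hp.out).1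
      (hi ▸ card_dvd_of_le (inf_le_left : O ⊓ centralizer (zpowers u : Set G) ≤ O))
    rw [hfix, hi, hj] at hmod
    rcases hji.lt_or_eq with hlt | rfl
    · exfalso
      refine h q hq hqp ?_ (i - j) (by omega) (by omega) ?_
      · exact ((dvd_pow_self q hm.ne').trans (huo ▸ dvd_refl _)).trans (orderOf_dvd_natCard u)
      · have h2 : q ∣ p ^ i - p ^ j :=
          (Nat.modEq_iff_dvd' (Nat.pow_le_pow_right hp.out.pos hlt.le)).1 hmod.symm
        rw [show p ^ i = p ^ j * p ^ (i - j) by rw [← pow_add, Nat.add_sub_cancel' hlt.le],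
          show p ^ j * p ^ (i - j) - p ^ j = p ^ j * (p ^ (i - j) - 1) by
            rw [Nat.mul_sub, mul_one]] at h2
        exact (hq.dvd_mul.mp h2).resolve_left fun hd =>
          hqp ((Nat.prime_dvd_prime_iff_eq hq hp.out).mp (hq.dvd_of_dvd_pow hd))
    · have heq : O ⊓ centralizer (zpowers u : Set G) = O :=
        eq_of_le_of_card_ge inf_le_left (by rw [hi, hj])
      intro x hx
      exact ((heq.symm ▸ hx : x ∈ O ⊓ centralizer (zpowers u : Set G)).2 u (mem_zpowers u)).symm
  -- from prime powers to `k`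
  suffices zpowers k ≤ centralizer (O : Set G) from this (mem_zpowers k)
  have h1 : (centralizer (O : Set G)).subgroupOf (zpowers k) = ⊤ := by
    refine eq_top_of_le_card _ (Nat.le_of_dvd Nat.card_pos ?_)
    refine (Nat.dvd_iff_prime_pow_dvd_dvd _ _).2 fun q m hq hqm => ?_
    have : Fact q.Prime := ⟨hq⟩
    rcases Nat.eq_zero_or_pos m with rfl | hm
    · simp
    obtain ⟨R, hR⟩ := Sylow.exists_subgroup_card_pow_prime q hqm
    rw [← hR]
    refine card_dvd_of_le fun x hx => ?_
    have h2 : orderOf (x : G) ∣ q ^ m := by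
      rw [orderOf_coe]; exact hR ▸ Subgroup.orderOf_dvd_natCard R hx
    obtain ⟨m', -, hm'⟩ := (Nat.dvd_prime_pow hq).1 h2
    refine main q m' hq x (zpowers_le.2 hk x.2) hm' fun hqp => ?_
    rw [Nat.card_zpowers] at hqm
    subst hqp
    exact hq.one_lt.ne' (Nat.eq_one_of_dvd_coprimes hkp ((dvd_pow_self q hm.ne').trans hqm) dvd_rfl)
  exact subgroupOf_eq_top.1 h1

theorem hasNormalPComplement_of_rank (P : Sylow p G) (hP : IsMulCommutative (P : Subgroup G))
    (h : ∀ q : ℕ, q.Prime → q ≠ p → q ∣ Nat.card G →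
      ∀ j, 1 ≤ j → j ≤ Group.rank (P : Subgroup G) → ¬ q ∣ p ^ j - 1) :
    Cfsg.HasNormalPComplement p G :=
  CfsgLib.Transfer.hasNormalPComplement_of_le_centralizer P
    (normalizer_le_centralizer_of_rank P hP h)

end CfsgLib.Hall2
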